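-- OTSM / OTSP [SPREAD] (helper40): form-generic core.  An isometry with a spread characteristic
-- polynomial moves a space of the expected dimension, and its invariant totally singular
-- subspaces inside the moved space are small.
import Mathlib
import Cfsg.Agent.Lib.Helper40.OTSM.FlagN
import Cfsg.Agent.Lib.Helper40.OTSP.SpN
import Cfsg.Agent.Lib.Helper14.Isom

set_option autoImplicit false
open scoped MatrixGroups

namespace Cfsg.Agent.Lib.Helper40.OTSM

open Cfsg Polynomial Module Matrix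
open Cfsg.Agent.Lib.Helper23.OHyp
open Cfsg.Agent.Lib.Helper40 Cfsg.Agent.Lib.Helper40.PrimeOrderGL Cfsg.Agent.Lib.Helper40.DualPoly

universe u

section core

variable {F : Type u} [Field F] [Fintype F] {ι : Type} [Fintype ι] [DecidableEq ι]

omit [Fintype F] in
/-- A fixed vector in the moved space of a matrix of order prime to the characteristic is zero. -/
theorem fix_mov_disjoint (x : Matrix ι ι F) {r : ℕ} (hrF : (r : F) ≠ 0) (hxr : x ^ r = 1)
    (w : ι → F) (hw : w ∈ movSp x) (hfix : x *ᵥ w = w) : w = 0 := by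
  obtain ⟨u, rfl⟩ := hw
  have h0 : (Matrix.toLin' x - 1) u = (x - 1) *ᵥ u := by
    rw [LinearMap.sub_apply, Matrix.toLin'_apply, Module.End.one_apply, Matrix.sub_mulVec,
      Matrix.one_mulVec]
  have h1 : (∑ k ∈ Finset.range r, x ^ k) *ᵥ ((Matrix.toLin' x - 1) u) = 0 := by
    rw [h0, Matrix.mulVec_mulVec, geom_sum_mul, hxr, sub_self, Matrix.zero_mulVec]
  have h2 : ∀ k : ℕ, (x ^ k) *ᵥ ((Matrix.toLin' x - 1) u) = (Matrix.toLin' x - 1) u := by
    intro k
    induction k with
    | zero => rw [pow_zero, Matrix.one_mulVec]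
    | succ k ih => rw [pow_succ, ← Matrix.mulVec_mulVec, hfix, ih]
  rw [Matrix.sum_mulVec] at h1
  simp only [h2] at h1
  rw [Finset.sum_const, Finset.card_range, ← Nat.cast_smul_eq_nsmul F] at h1
  exact (smul_eq_zero.1 h1).resolve_left hrF

/-- The form-generic core of [SPREAD] / [SPREADM]. -/
theorem spread_core (Q : QuadraticForm F (ι → F))
    (hnd : (QuadraticMap.polarBilin Q).Nondegenerate)
    {S : Finset F[X]} {r i : ℕ} (hS : Factors S r i) (hr : r.Prime) (hrF : (r : F) ≠ 0)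
    (hself : ∀ π : S, dual (RingHom.id F) π.1 = π.1)
    (g : Matrix ι ι F) (hg : ∀ v, Q (g *ᵥ v) = Q v) (hgr : g ^ r = 1)
    (a : S → ℕ) (k₀ : ℕ) (hχ : g.charpoly = chi S a k₀) (bound : ℕ)
    (hab : ∀ a₁ : S → ℕ, (∀ π, 2 * a₁ π ≤ a π) → ∑ π, a₁ π ≤ bound) :
    ∃ y : GL ι F, y ∈ Cfsg.isometryGroup F ⇑Q ∧ y ^ r = 1 ∧
      Module.finrank F (movSp (y : Matrix ι ι F)) + k₀ = Fintype.card ι ∧
      ∀ L : Submodule F (ι → F), L ≤ movSp (y : Matrix ι ι F) → Inv (y : Matrix ι ι F) L →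
        (∀ w ∈ L, Q w = 0) → Module.finrank F L ≤ i * bound := by
  classical
  have hr1 : 1 ≤ r := hr.one_lt.le
  have h1 : g * g ^ (r - 1) = 1 := by rw [← pow_succ', Nat.sub_add_cancel hr1, hgr]
  have h2 : g ^ (r - 1) * g = 1 := by rw [← pow_succ, Nat.sub_add_cancel hr1, hgr]
  refine ⟨⟨g, g ^ (r - 1), h1, h2⟩, ?_, ?_, ?_, ?_⟩
  · rw [Cfsg.Agent.Lib.Helper14.mem_isometryGroup_iff]
    exact hg
  · apply Units.ext
    rw [Units.val_pow_eq_pow_val]
    exact hgr
  · show finrank F (movSp g) + k₀ = _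
    have h3 := SpImprim.finrank_fix_of_chi hS hrF g hgr a k₀ hχ
    have h4 := LinearMap.finrank_range_add_finrank_ker (Matrix.toLin' g - 1)
    rw [Module.finrank_fintype_fun_eq_card] at h4
    have h5 : LinearMap.ker (Matrix.toLin' g - 1) = SpImprim.fixS (Matrix.toLin' g) := rfl
    rw [h5, h3] at h4
    exact h4
  · intro L hLN hLinv hLts
    obtain ⟨a₁, h3, h4⟩ := flagN Q hnd hS hrF id (fun π => (hself π).symm) (fun π => rfl) g hg hgr
      a k₀ hχ L (finrank F L) rfl hLts hLinv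
      (fun w hw hfix => fix_mov_disjoint g hrF hgr w (hLN hw) hfix)
    rw [← h3]
    apply Nat.mul_le_mul_left
    apply hab
    intro π
    have h5 := h4 π
    simp only [id] at h5
    omega

end core

end Cfsg.Agent.Lib.Helper40.OTSM
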