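-- OTSM (S5987) package [SPREADM] and OTSP (S5973) package [SPREAD] (helper40): the spread
-- elements of the minus and plus forms, from the landed existence theorems
-- Helper14.OCls.exEvenMinus / exEvenPlus and the form-generic core `spread_core`.
import Mathlib
import Cfsg.Agent.Lib.Helper40.OTSM.SpreadCore
import Cfsg.Agent.Lib.Helper31.OTSM.Defs
import Cfsg.Agent.Lib.Helper14.OCls.Final
import Cfsg.Agent.Lib.Helper44.Char2Forms

set_option autoImplicit false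
open scoped MatrixGroups

namespace Cfsg.Agent.Lib.Helper40.OTSM

open Cfsg Polynomial Module Matrix
open Cfsg.Agent.Lib.Helper23.OHyp Cfsg.Agent.Lib.Helper99.OTSP
open Cfsg.Agent.Lib.Helper40 Cfsg.Agent.Lib.Helper40.PrimeOrderGL Cfsg.Agent.Lib.Helper40.DualPoly

universe u

/-- Common setup: the factors of `Φ_r`, all self-dual for `i` even, and the spread vector. -/
theorem spread_setup {F : Type u} [Field F] [Fintype F] (p : ℕ) [Fact p.Prime] [CharP F p]
    (r j : ℕ) (hr : r.Prime) (hr2 : r ≠ 2) (hrq : ¬ r ∣ Fintype.card F)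
    (hev : Even (ordI (Fintype.card F) r)) :
    ∃ (S : Finset F[X]) (av : S → ℕ), Factors S r (ordI (Fintype.card F) r) ∧ (r : F) ≠ 0 ∧
      (∀ π : S, dual (RingHom.id F) π.1 = π.1) ∧ ∑ π, av π = j ∧
      ∀ a₁ : S → ℕ, (∀ π, 2 * a₁ π ≤ av π) →
        ∑ π, a₁ π ≤ (j + 1 - (r - 1) / ordI (Fintype.card F) r) / 2 := by
  classical
  haveI : Fact r.Prime := ⟨hr⟩
  have hrp : r ≠ p := by
    rintro rfl
    exact hrq (Elusive.char_dvd_card r)
  obtain ⟨i, hi⟩ : ∃ i, i = ordI (Fintype.card F) r := ⟨_, rfl⟩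
  rw [← hi] at hev ⊢
  have hi' : i = orderOf ((Fintype.card F : ℕ) : ZMod r) := hi
  obtain ⟨S, dg, hS, hne, hdg, hdd, hdev, -⟩ :=
    SpImprim.exists_data (rfl : Fintype.card F = Fintype.card F) r hr2 hrp i hi'
  have hrF : (r : F) ≠ 0 := Elusive.natCast_ne_zero_of_ne r hrp
  have hi0 : 0 < i := by
    rw [hi']
    exact Elusive.orderOf_pos_of_ne rfl r hrp
  have hcard := SpIso.card_factors (rfl : Fintype.card F = Fintype.card F) hrp hi' hS
  have ht : (r - 1) / i = Fintype.card S := by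
    rw [← hcard, Nat.mul_div_cancel _ hi0, Fintype.card_coe]
  haveI : Nonempty S := hne.to_subtype
  obtain ⟨av, hasum, hab⟩ := Cfsg.Agent.Lib.Helper40.OTSP.exists_spread (S := ↥S) j
  have hid := hdev hev
  refine ⟨S, av, hS, hrF, fun π => ?_, hasum, ?_⟩
  · rw [← hdg π, hid π]
  · rw [ht]
    exact hab

/-- **[SPREADM]** (OTSM = S5987). -/
theorem pkgSpreadM : Cfsg.Agent.Lib.Helper31.OTSM.PkgSpreadM.{u} := by
  intro F _ _ k r j a b hab hr hr2 hrq hev hj hle hfull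
  classical
  obtain ⟨p, hp⟩ := CharP.exists F
  haveI : Fact p.Prime := ⟨CharP.char_is_prime F p⟩
  obtain ⟨S, av, hS, hrF, hself, hasum, hbd⟩ := spread_setup p r j hr hr2 hrq hev
  obtain ⟨g, hgr, hgQ, hgχ⟩ := Cfsg.Agent.Lib.Helper14.OCls.exEvenMinus p S r
    (ordI (Fintype.card F) r) hS hr hr2 hrF rfl hev (fun π hπ => hself ⟨π, hπ⟩) k a b hab av
    (by rw [hasum]; exact hle) (by rw [hasum]; exact hfull)
  obtain ⟨y, hy1, hy2, hy3, hy4⟩ := spread_core (Cfsg.Agent.Lib.Helper14.minusQF k F a b)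
    (Cfsg.Agent.Lib.Helper44.minusQF_nondegenerate_all k F a b hab) hS hr hrF hself g
    (by rw [Cfsg.Agent.Lib.Helper14.minusQF_coe]; exact hgQ) hgr av _ hgχ _ hbd
  rw [Cfsg.Agent.Lib.Helper14.minusQF_coe] at hy1
  refine ⟨y, hy1, hy2, ?_, ?_⟩
  · rw [hasum] at hy3
    simp only [Fintype.card_sum, Fintype.card_fin] at hy3
    obtain ⟨N, hN⟩ : ∃ N, N = ordI (Fintype.card F) r * j := ⟨_, rfl⟩
    rw [← hN] at hy3 hle ⊢
    exact Nat.add_right_cancel (hy3.trans (by omega : k + k + 2 = N + (2 * k + 2 - N)))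
  · intro L hLN hLinv hLts
    exact hy4 L hLN hLinv
      (fun w hw => by rw [Cfsg.Agent.Lib.Helper14.minusQF_coe]; exact hLts w hw)

/-- **[SPREAD]** (OTSP = S5973). -/
theorem pkgSpread : Cfsg.Agent.Lib.Helper99.OTSP.PkgSpread.{u} := by
  intro F _ _ d r j hr hr2 hrq hev hj hle hfull
  classical
  obtain ⟨p, hp⟩ := CharP.exists F
  haveI : Fact p.Prime := ⟨CharP.char_is_prime F p⟩
  obtain ⟨S, av, hS, hrF, hself, hasum, hbd⟩ := spread_setup p r j hr hr2 hrq hev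
  obtain ⟨g, hgr, hgQ, hgχ⟩ := Cfsg.Agent.Lib.Helper14.OCls.exEvenPlus p S r
    (ordI (Fintype.card F) r) hS hr hr2 hrF rfl hev (fun π hπ => hself ⟨π, hπ⟩) d av
    (by rw [hasum]; exact hle) (by rw [hasum]; exact hfull)
  obtain ⟨y, hy1, hy2, hy3, hy4⟩ := spread_core (Cfsg.Agent.Lib.Helper14.plusQF d F)
    (Cfsg.Agent.Lib.Helper14.plusQF_nondegenerate d F) hS hr hrF hself g
    (by rw [Cfsg.Agent.Lib.Helper14.plusQF_coe]; exact hgQ) hgr av _ hgχ _ hbd
  rw [Cfsg.Agent.Lib.Helper14.plusQF_coe] at hy1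
  refine ⟨y, hy1, hy2, ?_, ?_⟩
  · rw [hasum] at hy3
    simp only [Fintype.card_sum, Fintype.card_fin] at hy3
    obtain ⟨N, hN⟩ : ∃ N, N = ordI (Fintype.card F) r * j := ⟨_, rfl⟩
    rw [← hN] at hy3 hle ⊢
    exact Nat.add_right_cancel (hy3.trans (by omega : d + d = N + (2 * d - N)))
  · intro L hLN hLinv hLts
    exact hy4 L hLN hLinv
      (fun w hw => by rw [Cfsg.Agent.Lib.Helper14.plusQF_coe]; exact hLts w hw)

end Cfsg.Agent.Lib.Helper40.OTSM
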